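/-
Piece DL of helper90's symplectic Aschbacher farm (bulletin #1298), by helper67:
Galois descent over finite fields (via helper43's Hilbert 90 for `GL_n`).
-/
import Cfsg.Agent.Lib.Helper90.Sp.Defs
import Cfsg.Agent.Lib.Helper96.Asch.L0b
import Cfsg.Agent.Lib.Helper43.PA.H90Scalar

set_option autoImplicit false

namespace Cfsg.Agent.Lib.Helper67.Sp

open Cfsg Cfsg.Geo Matrix Cfsg.Agent.Lib.Helper13.Asch Cfsg.Agent.Lib.Helper90.Sp
open Cfsg.Agent.Lib.Helper43.PA
open scoped Kronecker MatrixGroups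

variable {ι : Type} [Fintype ι] [DecidableEq ι] {F : Type*} [Field F]

/-- reindexing `GL ι F ≃* GL (Fin n) F` -/
noncomputable def reG {n : ℕ} (e : ι ≃ Fin n) : GL ι F ≃* GL (Fin n) F :=
  Units.mapEquiv (Matrix.reindexAlgEquiv F F e).toMulEquiv

theorem reG_apply {n : ℕ} (e : ι ≃ Fin n) (g : GL ι F) (i j : Fin n) :
    (reG e g).1 i j = g.1 (e.symm i) (e.symm j) := rfl

theorem reG_symm_apply {n : ℕ} (e : ι ≃ Fin n) (g : GL (Fin n) F) (a b : ι) :
    ((reG e).symm g).1 a b = g.1 (e a) (e b) := rfl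

/-- conjugation formula for the partial norms -/
theorem nrm_conj {n : ℕ} (σ : F ≃+* F) (C x : GL (Fin n) F) (hx : mapGL σ x = C * x * C⁻¹) (j : ℕ) :
    mapGL (σ ^ j) x = (nrm σ C⁻¹ j)⁻¹ * x * nrm σ C⁻¹ j := by
  induction j with
  | zero => simp [nrm_zero, mapGL_one']
  | succ j ih =>
    rw [pow_succ', mapGL_mul', ih, map_mul, map_mul, hx, nrm_succ, map_inv]
    group

/-- DL -/
theorem realisable_of_twist [Fintype F] {P : Subgroup (GL ι F)} (henv : env P = ⊤) (σ : F ≃+* F)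
    (C : GL ι F)
    (hC : ∀ x ∈ P, (x : Matrix ι ι F).map σ =
      (C : Matrix ι ι F) * (x : Matrix ι ι F) * ((C⁻¹ : GL ι F) : Matrix ι ι F))
    (F₀ : Subfield F) (hF₀ : ∀ a : F, σ a = a → a ∈ F₀) : RealisableOver F₀ (matrixSet P) := by
  rcases isEmpty_or_nonempty ι with hι | hι
  · exact ⟨1, fun s _ i => (hι.false i).elim⟩
  set n := Fintype.card ι with hn
  have hn1 : 1 ≤ n := Fintype.card_pos
  let e : ι ≃ Fin n := Fintype.equivFin ι
  set C' : GL (Fin n) F := reG e C with hC'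
  have hx : ∀ x ∈ P, mapGL σ (reG e x) = C' * reG e x * C'⁻¹ := by
    intro x hxP
    have h1 : reG e (C * x * C⁻¹) = C' * reG e x * C'⁻¹ := by
      rw [map_mul, map_mul, map_inv]
    rw [← h1]
    apply Units.ext
    ext i j
    rw [mapGL_coe, Matrix.map_apply, reG_apply, reG_apply]
    have h2 := congrFun (congrFun (hC x hxP) (e.symm i)) (e.symm j)
    rw [Matrix.map_apply] at h2
    exact h2
  have hfin : Finite (F ≃+* F) := Finite.of_injective (fun t => (t : F → F)) DFunLike.coe_injective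
  set k := orderOf σ with hk
  have hk0 : 0 < k := orderOf_pos σ
  have hσk : σ ^ k = 1 := pow_orderOf_eq_one σ
  set N := nrm σ C'⁻¹ k with hN
  -- `N` commutes with `P`
  have hcomm : ∀ x ∈ P, N * reG e x = reG e x * N := by
    intro x hxP
    have h1 := nrm_conj σ C' (reG e x) (hx x hxP) k
    rw [hσk, mapGL_one', ← hN] at h1
    calc N * reG e x = N * (N⁻¹ * reG e x * N) := by rw [← h1]
      _ = reG e x * N := by group
  obtain ⟨c, hc⟩ := Cfsg.Agent.Lib.Helper96.Asch.scalar_of_commute henv ((reG e).symm N).1 (by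
    intro x hxP
    have h1 := congrArg (reG e).symm (hcomm x hxP)
    rw [map_mul, map_mul, MulEquiv.symm_apply_apply] at h1
    exact congrArg Units.val h1)
  have hc0 : c ≠ 0 := by
    rintro rfl
    have h7 := ((reG e).symm N).isUnit
    rw [hc, zero_smul] at h7
    exact not_isUnit_zero h7
  have hNs : N = scGL (Units.mk0 c hc0) := by
    apply Units.ext
    ext i j
    have h1 : N.1 i j = ((reG e).symm N).1 (e.symm i) (e.symm j) := by
      rw [reG_symm_apply, Equiv.apply_symm_apply, Equiv.apply_symm_apply]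
    rw [h1, hc, scGL_coe, Matrix.scalar_apply, Matrix.diagonal_apply, Matrix.smul_apply,
      Matrix.one_apply]
    by_cases hij : i = j
    · subst hij; simp
    · have : e.symm i ≠ e.symm j := fun h => hij (e.symm.injective h)
      simp [hij, this]
  -- `c` is fixed by `σ`
  have hfixc : uM σ (Units.mk0 c hc0) = Units.mk0 c hc0 := by
    have h1 : C'⁻¹ * mapGL σ N = N * C'⁻¹ := by
      rw [hN, ← nrm_succ, nrm_succ', hσk, mapGL_one']
    rw [hNs, mapGL_scGL, ← scGL_comm] at h1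
    exact scGL_injective hn1 (mul_right_cancel h1)
  obtain ⟨l, hl⟩ := exists_nU_eq σ k rfl hk0 (Units.mk0 c hc0)⁻¹ (by rw [map_inv, hfixc])
  obtain ⟨h, hh⟩ := hilbert90_GL σ (scGL l * C'⁻¹) k rfl hk0 (by
    rw [nrm_scGL_mul, hl, ← hN, hNs, ← map_mul, inv_mul_cancel, map_one])
  have hσh : mapGL σ h = C' * scGL l⁻¹ * h := by
    have h1 : mapGL σ h = (scGL l * C'⁻¹)⁻¹ * h := by rw [hh]; group
    rw [h1, _root_.mul_inv_rev, inv_inv, map_inv]
  refine ⟨(reG e).symm h⁻¹, ?_⟩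
  rintro _ ⟨x, hxP, rfl⟩ a b
  set y : GL (Fin n) F := h⁻¹ * reG e x * h with hy
  have hyfix : mapGL σ y = y := by
    rw [hy, map_mul, map_mul, map_inv, hσh, hx x hxP]
    have e1 : (C' * scGL l⁻¹ * h)⁻¹ * (C' * reG e x * C'⁻¹) * (C' * scGL l⁻¹ * h)
        = h⁻¹ * ((scGL l⁻¹)⁻¹ * reG e x * scGL l⁻¹) * h := by group
    rw [e1, mul_assoc (scGL l⁻¹)⁻¹, ← scGL_comm, inv_mul_cancel_left]
  have hent : ((((reG e).symm h⁻¹ : GL ι F) : Matrix ι ι F) * (x : Matrix ι ι F)
      * ((((reG e).symm h⁻¹)⁻¹ : GL ι F) : Matrix ι ι F)) a b = y.1 (e a) (e b) := by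
    have h1 : (reG e).symm y = (reG e).symm h⁻¹ * x * ((reG e).symm h⁻¹)⁻¹ := by
      rw [hy, map_mul, map_mul, MulEquiv.symm_apply_apply, map_inv, inv_inv]
    rw [← reG_symm_apply, h1]
    rfl
  rw [hent]
  apply hF₀
  have := congrArg (fun g : GL (Fin n) F => g.1 (e a) (e b)) hyfix
  exact this

end Cfsg.Agent.Lib.Helper67.Sp
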