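/-
Piece K1b of helper90's symplectic Aschbacher farm (bulletin #1298), by helper67.
-/
import Cfsg.Agent.Lib.Helper67.Sp.DL
import Cfsg.Agent.Lib.Helper55.Asch.FormCore

set_option autoImplicit false

namespace Cfsg.Agent.Lib.Helper67.Sp

open Cfsg Cfsg.Geo Matrix Cfsg.Agent.Lib.Helper13.Asch Cfsg.Agent.Lib.Helper90.Sp
open Cfsg.Agent.Lib.Helper55.Asch
open scoped Kronecker MatrixGroups

variable {ι : Type} [Fintype ι] [DecidableEq ι] {F : Type*} [Field F]

/-- K1b -/
theorem realisable_of_bilinear_unitary [Fintype F] {P : Subgroup (GL ι F)} (henv : env P = ⊤)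
    {f : (ι → F) → (ι → F) → F} (hb : IsBilinearForm f) (hnd : IsNondegenerateForm f)
    (hf : FixesForm (matrixSet P) f) (σ : F ≃+* F) (u : (ι → F) → (ι → F) → F)
    (hu : IsUnitaryForm σ u) (hfu : FixesForm (matrixSet P) u) :
    ∃ F₀ : Subfield F, F₀ ≠ ⊤ ∧ RealisableOver F₀ (matrixSet P) := by
  have hfG : ∀ v w, f v w = gform (RingHom.id F) (gram f) v w :=
    eq_gform (RingHom.id F) f hb.add_left hb.smul_left hb.add_right hb.smul_right
  have huG : ∀ v w, u v w = gform (σ : F →+* F) (gram u) v w := by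
    apply eq_gform (σ : F →+* F) u hu.add_left hu.smul_left
    · intro v x y
      rw [hu.herm, hu.add_left, map_add, ← hu.herm, ← hu.herm]
    · intro c v x
      rw [hu.herm, hu.smul_left, map_mul, ← hu.herm]
      rfl
  set G := gram f with hG
  set U := gram u with hU
  have hGu : IsUnit G := by
    rw [Matrix.isUnit_iff_isUnit_det]
    apply isUnit_det_of_nondeg (RingEquiv.refl F) G
    intro v hv
    obtain ⟨x, hx⟩ := (hnd v hv).1
    exact ⟨x, by rw [hfG] at hx; exact hx⟩
  have hUu : IsUnit U := by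
    rw [Matrix.isUnit_iff_isUnit_det]
    apply isUnit_det_of_nondeg σ U
    intro v hv
    obtain ⟨x, hx⟩ := (hu.nondegenerate v hv).1
    exact ⟨x, by rw [huG] at hx; exact hx⟩
  have h1 : ∀ x ∈ P, (x : Matrix ι ι F)ᵀ * G * (x : Matrix ι ι F) = G := by
    intro x hx
    apply gform_ext (RingHom.id F)
    intro v w
    have := hf _ ⟨x, hx, rfl⟩ v w
    rw [hfG, hfG, gform_mulVec] at this
    have e : (x : Matrix ι ι F).map (RingHom.id F) = (x : Matrix ι ι F) := by ext i j; rfl
    rw [e] at this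
    exact this
  have h2 : ∀ x ∈ P, (x : Matrix ι ι F)ᵀ * U * (x : Matrix ι ι F).map σ = U := by
    intro x hx
    apply gform_ext (σ : F →+* F)
    intro v w
    have := hfu _ ⟨x, hx, rfl⟩ v w
    rw [huG, huG, gform_mulVec] at this
    exact this
  refine ⟨RingHom.eqLocusField (σ : F →+* F) (RingHom.id F), ?_, ?_⟩
  · intro htop
    apply hu.ne_refl
    ext a
    have : a ∈ RingHom.eqLocusField (σ : F →+* F) (RingHom.id F) := by rw [htop]; trivial
    exact this
  · refine realisable_of_twist henv σ (hUu.unit⁻¹ * hGu.unit) ?_ _ (fun a ha => ha)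
    intro x hx
    have eG : (hGu.unit : Matrix ι ι F) = G := rfl
    have eU : (hUu.unit : Matrix ι ι F) = U := rfl
    set G' : Matrix ι ι F := ((hGu.unit⁻¹ : GL ι F) : Matrix ι ι F) with hG'
    set U' : Matrix ι ι F := ((hUu.unit⁻¹ : GL ι F) : Matrix ι ι F) with hU'
    set x' : Matrix ι ι F := ((x⁻¹ : GL ι F) : Matrix ι ι F) with hx'
    have gg' : G * G' = 1 := by rw [← eG, hG', ← Units.val_mul, mul_inv_cancel]; rfl
    have g'g : G' * G = 1 := by rw [← eG, hG', ← Units.val_mul, inv_mul_cancel]; rfl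
    have u'u : U' * U = 1 := by rw [← eU, hU', ← Units.val_mul, inv_mul_cancel]; rfl
    have xx' : (x : Matrix ι ι F) * x' = 1 := by rw [hx', ← Units.val_mul, mul_inv_cancel]; rfl
    have e1 : (((hUu.unit⁻¹ * hGu.unit : GL ι F)) : Matrix ι ι F) = U' * G := rfl
    have e2 : (((hUu.unit⁻¹ * hGu.unit)⁻¹ : GL ι F) : Matrix ι ι F) = G' * U := by
      rw [_root_.mul_inv_rev, inv_inv]; rfl
    rw [e1, e2]
    have e3 : (x : Matrix ι ι F)ᵀ = G * x' * G' := by
      calc (x : Matrix ι ι F)ᵀ = (x : Matrix ι ι F)ᵀ * (G * ((x : Matrix ι ι F) * x') * G') := by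
            rw [xx', Matrix.mul_one, gg', Matrix.mul_one]
        _ = ((x : Matrix ι ι F)ᵀ * G * (x : Matrix ι ι F)) * x' * G' := by
            simp only [Matrix.mul_assoc]
        _ = G * x' * G' := by rw [h1 x hx]
    have e4 := h2 x hx
    rw [e3] at e4
    calc (x : Matrix ι ι F).map σ
        = U' * (G * ((x : Matrix ι ι F) * x') * G') * U * (x : Matrix ι ι F).map σ := by
          rw [xx', Matrix.mul_one, gg', Matrix.mul_one, u'u, Matrix.one_mul]
      _ = U' * G * (x : Matrix ι ι F) * (G' * G) * x' * G' * U * (x : Matrix ι ι F).map σ := by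
          rw [g'g]; simp only [Matrix.mul_assoc, Matrix.one_mul]
      _ = U' * G * (x : Matrix ι ι F) * G' * (G * x' * G' * U * (x : Matrix ι ι F).map σ) := by
          simp only [Matrix.mul_assoc]
      _ = U' * G * (x : Matrix ι ι F) * (G' * U) := by
          rw [e4]; simp only [Matrix.mul_assoc]

end Cfsg.Agent.Lib.Helper67.Sp
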