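/-
Piece K1c of helper90's symplectic Aschbacher farm (bulletin #1298), by helper67.
-/
import Cfsg.Agent.Lib.Helper90.Sp.Defs

set_option autoImplicit false

namespace Cfsg.Agent.Lib.Helper67.Sp

open Cfsg Cfsg.Geo Matrix Cfsg.Agent.Lib.Helper13.Asch Cfsg.Agent.Lib.Helper90.Sp
open scoped Kronecker MatrixGroups

variable {ι : Type} [Fintype ι] [DecidableEq ι] {F : Type*} [Field F]

/-- an additive map `V → F` on a space of dimension at least two over a finite field has a
non-zero vector in its kernel -/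
theorem exists_ne_zero_of_additive [Fintype F] (hι : 2 ≤ Fintype.card ι) (δ : (ι → F) → F)
    (hadd : ∀ u v, δ (u + v) = δ u + δ v) : ∃ v : ι → F, v ≠ 0 ∧ δ v = 0 := by
  classical
  have hcard : Fintype.card F < Fintype.card (ι → F) := by
    rw [Fintype.card_fun]
    have h1 : 1 < Fintype.card F := Fintype.one_lt_card
    calc Fintype.card F = Fintype.card F ^ 1 := (pow_one _).symm
      _ < Fintype.card F ^ Fintype.card ι := Nat.pow_lt_pow_right h1 (by omega)
  obtain ⟨x, y, hxy, he⟩ := Fintype.exists_ne_map_eq_of_card_lt δ hcard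
  refine ⟨x - y, sub_ne_zero.2 hxy, ?_⟩
  have h := hadd (x - y) y
  rw [sub_add_cancel, he] at h
  exact (add_eq_right.1 h.symm)

/-- K1c -/
theorem hasQuad_of_normal [Fintype F] (h2 : (2 : F) = 0) (hι : 2 ≤ Fintype.card ι)
    {f : (ι → F) → (ι → F) → F} (hf : IsSymplecticForm f) {H N : Subgroup (GL ι F)}
    (hH : FixesForm (matrixSet H) f) (hN : Nrm H N) (hirr : ActsIrreducibly (matrixSet N))
    (hQ : HasQuad f N) : HasQuad f H := by
  obtain ⟨Q, hQn, hpol, hfix⟩ := hQ
  refine ⟨Q, hQn, hpol, ?_⟩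
  rintro _ ⟨h, hh, rfl⟩ v
  -- expansion of `Q`
  have hexp : ∀ u w, Q (u + w) = Q u + Q w + f u w := by
    intro u w
    rw [← hpol u w, QuadraticMap.polar]; ring
  set δ : (ι → F) → F := fun v => Q ((h : Matrix ι ι F) *ᵥ v) - Q v with hδ
  have hadd : ∀ u w, δ (u + w) = δ u + δ w := by
    intro u w
    simp only [hδ]
    rw [Matrix.mulVec_add, hexp, hexp, hH _ ⟨h, hh, rfl⟩ u w]
    ring
  have hsm : ∀ (c : F) (u : ι → F), δ (c • u) = c ^ 2 * δ u := by
    intro c u
    simp only [hδ]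
    rw [Matrix.mulVec_smul, hQn.smul, hQn.smul]
    ring
  have hinv : ∀ x ∈ N, ∀ u, δ ((x : Matrix ι ι F) *ᵥ u) = δ u := by
    intro x hx u
    simp only [hδ]
    have h1 : (h : Matrix ι ι F) *ᵥ ((x : Matrix ι ι F) *ᵥ u)
        = ((h * x * h⁻¹ : GL ι F) : Matrix ι ι F) *ᵥ ((h : Matrix ι ι F) *ᵥ u) := by
      rw [Matrix.mulVec_mulVec, Matrix.mulVec_mulVec, ← Units.val_mul, ← Units.val_mul]
      congr 2
      group
    rw [h1, hfix _ ⟨_, hN h hh x hx, rfl⟩, hfix _ ⟨x, hx, rfl⟩]
  let W : Submodule F (ι → F) :=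
    { carrier := {u | δ u = 0}
      add_mem' := by
        intro a b ha hb
        simp only [Set.mem_setOf_eq] at ha hb ⊢
        rw [hadd, ha, hb, add_zero]
      zero_mem' := by
        simp only [Set.mem_setOf_eq]
        have := hadd 0 0
        rw [add_zero] at this
        exact (add_eq_right.1 this.symm)
      smul_mem' := by
        intro c a ha
        simp only [Set.mem_setOf_eq] at ha ⊢
        rw [hsm, ha, mul_zero] }
  have hW : ∀ s ∈ matrixSet N, W.map (Matrix.toLin' s) ≤ W := by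
    rintro _ ⟨x, hx, rfl⟩ _ ⟨u, hu, rfl⟩
    show δ _ = 0
    rw [Matrix.toLin'_apply, hinv x hx]
    exact hu
  obtain ⟨v₀, hv₀, hd₀⟩ := exists_ne_zero_of_additive hι δ hadd
  rcases hirr W hW with hb | ht
  · exfalso
    have : v₀ ∈ W := hd₀
    rw [hb, Submodule.mem_bot] at this
    exact hv₀ this
  · have : v ∈ W := by rw [ht]; trivial
    exact sub_eq_zero.1 this

end Cfsg.Agent.Lib.Helper67.Sp
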