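/-
Piece K1d of helper90's symplectic Aschbacher farm (bulletin #1298), by helper67.
-/
import Cfsg.Agent.Lib.Helper90.Sp.Defs
import Cfsg.Agent.Lib.Helper55.Asch.FormCore

set_option autoImplicit false

namespace Cfsg.Agent.Lib.Helper67.Sp

open Cfsg Cfsg.Geo Matrix Cfsg.Agent.Lib.Helper13.Asch Cfsg.Agent.Lib.Helper90.Sp
open Cfsg.Agent.Lib.Helper55.Asch
open scoped Kronecker MatrixGroups

variable {ι : Type} [Fintype ι] [DecidableEq ι] {F : Type*} [Field F]

/-- two invariant non-degenerate bilinear forms of a group spanning the matrix algebra are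
proportional -/
theorem bilinear_unique {P : Subgroup (GL ι F)} (henv : env P = ⊤)
    {f g : (ι → F) → (ι → F) → F} (hb : IsBilinearForm f) (hnd : IsNondegenerateForm f)
    (hf : FixesForm (matrixSet P) f) (hb' : IsBilinearForm g)
    (hg : FixesForm (matrixSet P) g) : ∃ c : F, ∀ u v, g u v = c * f u v := by
  have hfG : ∀ v w, f v w = gform (RingHom.id F) (gram f) v w :=
    eq_gform (RingHom.id F) f hb.add_left hb.smul_left hb.add_right hb.smul_right
  have hgG : ∀ v w, g v w = gform (RingHom.id F) (gram g) v w :=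
    eq_gform (RingHom.id F) g hb'.add_left hb'.smul_left hb'.add_right hb'.smul_right
  have hGu : IsUnit (gram f).det := by
    apply isUnit_det_of_nondeg (RingEquiv.refl F) (gram f)
    intro v hv
    obtain ⟨x, hx⟩ := (hnd v hv).1
    exact ⟨x, by rw [hfG] at hx; exact hx⟩
  have h1 : ∀ x ∈ P, (x : Matrix ι ι F)ᵀ * gram f * (x : Matrix ι ι F).map (RingHom.id F)
      = gram f := by
    intro x hx
    apply gform_ext (RingHom.id F)
    intro v w
    have := hf _ ⟨x, hx, rfl⟩ v w
    rw [hfG, hfG, gform_mulVec] at this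
    exact this
  have h2 : ∀ x ∈ P, (x : Matrix ι ι F)ᵀ * gram g * (x : Matrix ι ι F).map (RingHom.id F)
      = gram g := by
    intro x hx
    apply gform_ext (RingHom.id F)
    intro v w
    have := hg _ ⟨x, hx, rfl⟩ v w
    rw [hgG, hgG, gform_mulVec] at this
    exact this
  obtain ⟨c, hc⟩ := gram_unique henv (RingHom.id F) _ _ hGu h1 h2
  refine ⟨c, fun u v => ?_⟩
  rw [hgG, hc, gform_smul, ← hfG]

/-- K1d -/
theorem quad_cases (hι : 2 ≤ Fintype.card ι) {f : (ι → F) → (ι → F) → F}
    (hf : IsSymplecticForm f) {P : Subgroup (GL ι F)} (henv : env P = ⊤)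
    (hfix : FixesForm (matrixSet P) f) (Q : (ι → F) → F) (hQ : IsNondegenerateQuadraticForm Q)
    (hfQ : FixesQuadForm (matrixSet P) Q) : (2 : F) = 0 ∧ HasQuad f P := by
  have hpfix : FixesForm (matrixSet P) (QuadraticMap.polar Q) := by
    intro s hs u v
    simp only [QuadraticMap.polar]
    rw [← Matrix.mulVec_add, hfQ s hs, hfQ s hs, hfQ s hs]
  obtain ⟨c, hc⟩ := bilinear_unique henv hf.bilinear hf.nondegenerate hfix hQ.polar_bilinear hpfix
  -- a non-zero vector
  have hne : Nonempty ι := by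
    rw [← Fintype.card_pos_iff]; omega
  obtain ⟨i⟩ := hne
  have hv0 : (Pi.single i 1 : ι → F) ≠ 0 := by
    intro h
    have := congrFun h i
    simp at this
  have hc0 : c ≠ 0 := by
    rintro rfl
    obtain ⟨x, hx⟩ := (hQ.nondegenerate _ hv0).1
    apply hx
    rw [hc, zero_mul]
  have h2 : (2 : F) = 0 := by
    by_contra h2
    obtain ⟨x, hx⟩ := (hf.nondegenerate _ hv0).1
    apply hx
    have hsym : f x (Pi.single i 1) = f (Pi.single i 1) x := by
      have h1 := hc x (Pi.single i 1)
      have h2 := hc (Pi.single i 1) x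
      rw [QuadraticMap.polar_comm] at h1
      rw [h1] at h2
      exact mul_left_cancel₀ hc0 h2
    have hsk := hf.skew x (Pi.single i 1)
    rw [← hsym] at hsk
    have h3 : (2 : F) * f x (Pi.single i 1) = 0 := by
      rw [two_mul]
      nth_rewrite 1 [hsk]
      ring
    rcases mul_eq_zero.1 h3 with h | h
    · exact absurd h h2
    · exact h
  refine ⟨h2, fun v => c⁻¹ * Q v, ?_, ?_, ?_⟩
  · have hpol : ∀ u v, QuadraticMap.polar (fun v => c⁻¹ * Q v) u v = f u v := by
      intro u v
      have := hc u v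
      simp only [QuadraticMap.polar] at this ⊢
      rw [← mul_sub, ← mul_sub, this, ← mul_assoc, inv_mul_cancel₀ hc0, one_mul]
    have hpe : QuadraticMap.polar (fun v => c⁻¹ * Q v) = f := by
      funext u v; exact hpol u v
    refine ⟨?_, ?_, ?_⟩
    · intro a v
      show c⁻¹ * Q (a • v) = a ^ 2 * (c⁻¹ * Q v)
      rw [hQ.smul]; ring
    · rw [hpe]; exact hf.bilinear
    · rw [hpe]; exact hf.nondegenerate
  · intro u v
    have := hc u v
    simp only [QuadraticMap.polar] at this ⊢
    rw [← mul_sub, ← mul_sub, this, ← mul_assoc, inv_mul_cancel₀ hc0, one_mul]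
  · intro s hs v
    show c⁻¹ * Q (s *ᵥ v) = c⁻¹ * Q v
    rw [hfQ s hs]

end Cfsg.Agent.Lib.Helper67.Sp
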